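import Mathlib

/-! A square matrix over a field is similar to its transpose: via the structure theorem for torsion modules over
`F[X]` and a non-degenerate functional on each cyclic summand. -/

set_option autoImplicit false

namespace Cfsg.Agent.Lib.Similar

open Polynomial Module DirectSum

variable {F : Type*} [Field F]

/-- A non-degenerate functional on `F[X]/(f)`: the top coefficient. -/
theorem exists_nondeg_functional (f : F[X]) (hf : f ≠ 0) :
    ∃ l : AdjoinRoot f →ₗ[F] F, ∀ g : AdjoinRoot f, g ≠ 0 → ∃ h, l (h * g) ≠ 0 := by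
  classical
  let pb := AdjoinRoot.powerBasis hf
  by_cases hd : pb.dim = 0
  · refine ⟨0, ?_⟩
    intro g hg
    exfalso
    apply hg
    have h1 := pb.basis.sum_repr g
    rw [← h1]
    apply Finset.sum_eq_zero
    intro i _
    have := i.2
    omega
  have hd' : pb.dim - 1 < pb.dim := by omega
  refine ⟨pb.basis.coord ⟨pb.dim - 1, hd'⟩, ?_⟩
  intro g hg
  have hS : (Finset.univ.filter (fun i => pb.basis.repr g i ≠ 0)).Nonempty := by
    by_contra hcon
    rw [Finset.not_nonempty_iff_eq_empty, Finset.filter_eq_empty_iff] at hcon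
    apply hg
    have h1 := pb.basis.sum_repr g
    rw [← h1]
    apply Finset.sum_eq_zero
    intro i hi
    have h2 := hcon hi
    push Not at h2
    rw [h2, zero_smul]
  let k := (Finset.univ.filter (fun i => pb.basis.repr g i ≠ 0)).max' hS
  have hk1 : pb.basis.repr g k ≠ 0 := by
    have := Finset.max'_mem _ hS
    exact (Finset.mem_filter.1 this).2
  have hk2 : ∀ i, k < i → pb.basis.repr g i = 0 := by
    intro i hi
    by_contra hne
    have h2 : i ≤ k := Finset.le_max' (Finset.univ.filter (fun i => pb.basis.repr g i ≠ 0)) i (Finset.mem_filter.2 ⟨Finset.mem_univ _, hne⟩)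
    exact absurd hi (not_lt.2 h2)
  have hkd := k.2
  let e := pb.dim - 1 - (k : ℕ)
  refine ⟨pb.gen ^ e, ?_⟩
  have h1 := pb.basis.sum_repr g
  conv_lhs => rw [← h1]
  rw [Finset.mul_sum, map_sum, Finset.sum_eq_single k]
  · rw [mul_smul_comm, map_smul, pb.coe_basis, ← pow_add]
    have h3 : e + (k : ℕ) = pb.dim - 1 := by omega
    rw [h3]
    have h4 : pb.gen ^ (pb.dim - 1) = pb.basis ⟨pb.dim - 1, hd'⟩ := by rw [pb.coe_basis]
    rw [h4, Module.Basis.coord_apply, Module.Basis.repr_self]
    simp [hk1]
  · intro i _ hik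
    rw [mul_smul_comm, map_smul]
    rcases lt_or_gt_of_ne hik with h5 | h5
    · rw [pb.coe_basis, ← pow_add]
      have h6 : e + (i : ℕ) < pb.dim - 1 := by
        have : (i : ℕ) < k := h5
        omega
      have h4 : pb.gen ^ (e + (i : ℕ)) = pb.basis ⟨e + (i : ℕ), by omega⟩ := by rw [pb.coe_basis]
      rw [h4, Module.Basis.coord_apply, Module.Basis.repr_self, Finsupp.single_apply, if_neg, smul_zero]
      intro h7
      have := congrArg Fin.val h7
      simp only at this
      omega
    · rw [hk2 i h5, zero_smul]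
  · intro h
    exact absurd (Finset.mem_univ k) h

/-- The module quotient seen as the ring quotient. -/
def toAdj (f : F[X]) (u : F[X] ⧸ (F[X] ∙ f)) : AdjoinRoot f := u

theorem toAdj_add (f : F[X]) (u v : F[X] ⧸ (F[X] ∙ f)) : toAdj f (u + v) = toAdj f u + toAdj f v := rfl

theorem toAdj_smul (f r : F[X]) (u : F[X] ⧸ (F[X] ∙ f)) :
    toAdj f (r • u) = AdjoinRoot.mk f r * toAdj f u := by
  induction u using Submodule.Quotient.induction_on with
  | _ a => rfl

theorem toAdj_surjective (f : F[X]) : Function.Surjective (toAdj f) := fun u => ⟨u, rfl⟩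

theorem toAdj_eq_zero (f : F[X]) (u : F[X] ⧸ (F[X] ∙ f)) (h : toAdj f u = 0) : u = 0 := h

/-- Every square matrix admits an invertible `G` with `Aᵀ G = G A`. -/
theorem exists_selfAdjoint_gram {ι : Type*} [Fintype ι] [DecidableEq ι] (A : Matrix ι ι F) :
    ∃ G : Matrix ι ι F, G.det ≠ 0 ∧ A.transpose * G = G * A := by
  classical
  let T : (ι → F) →ₗ[F] (ι → F) := Matrix.toLin' A
  have htors : Module.IsTorsion F[X] (Module.AEval' T) := Module.AEval.isTorsion_of_finiteDimensional F (ι → F) T
  obtain ⟨I, _, p, hp, e, ⟨Φ⟩⟩ := Module.equiv_directSum_of_isTorsion htors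
  let f : I → F[X] := fun i => p i ^ e i
  have hf : ∀ i, f i ≠ 0 := fun i => pow_ne_zero _ (hp i).ne_zero
  choose l hl using fun i => exists_nondeg_functional (f i) (hf i)
  let ψ : (i : I) → (ι → F) → AdjoinRoot (f i) := fun i x =>
    toAdj (f i) (DirectSum.component F[X] I _ i (Φ (AEval'.of T x)))
  have ψ_add : ∀ i x y, ψ i (x + y) = ψ i x + ψ i y := by
    intro i x y
    simp only [ψ, map_add, toAdj_add]
  have ψ_smul : ∀ i (c : F) x, ψ i (c • x) = c • ψ i x := by
    intro i c x
    have h1 : AEval'.of T (c • x) = (C c : F[X]) • AEval'.of T x := by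
      rw [map_smul, Module.AEval.C_smul]
    simp only [ψ]
    rw [h1, map_smul, map_smul, toAdj_smul, AdjoinRoot.mk_C, Algebra.smul_def]
    rfl
  have ψ_A : ∀ i x, ψ i (T x) = AdjoinRoot.root (f i) * ψ i x := by
    intro i x
    have h1 : AEval'.of T (T x) = (X : F[X]) • AEval'.of T x := (AEval'.X_smul_of T x).symm
    simp only [ψ]
    rw [h1, map_smul, map_smul, toAdj_smul, AdjoinRoot.mk_X]
  let B : LinearMap.BilinForm F (ι → F) := LinearMap.mk₂ F (fun x y => ∑ i, l i (ψ i x * ψ i y))
    (by
      intro x x' y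
      simp only [ψ_add, add_mul, map_add, Finset.sum_add_distrib])
    (by
      intro c x y
      simp only [ψ_smul, smul_mul_assoc, map_smul, smul_eq_mul, Finset.mul_sum])
    (by
      intro x y y'
      simp only [ψ_add, mul_add, map_add, Finset.sum_add_distrib])
    (by
      intro c x y
      simp only [ψ_smul, mul_smul_comm, map_smul, smul_eq_mul, Finset.mul_sum])
  have hB : ∀ x y, B x y = ∑ i, l i (ψ i x * ψ i y) := fun x y => rfl
  have hadj : ∀ x y, B (T x) y = B x (T y) := by
    intro x y
    rw [hB, hB]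
    apply Finset.sum_congr rfl
    intro i _
    rw [ψ_A, ψ_A]
    congr 1
    ring
  let G := LinearMap.BilinForm.toMatrix' B
  refine ⟨G, ?_, ?_⟩
  · intro hdet
    obtain ⟨v, hv0, hv⟩ := Matrix.exists_mulVec_eq_zero_iff.2 hdet
    have hBv : ∀ u, B u v = 0 := by
      intro u
      have h1 : Matrix.toBilin' G = B := Matrix.toBilin'_toMatrix' B
      rw [← h1, Matrix.toBilin'_apply', hv, dotProduct_zero]
    -- some component of v does not vanish
    have hex : ∃ i, ψ i v ≠ 0 := by
      by_contra hcon
      push Not at hcon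
      apply hv0
      have h2 : Φ (AEval'.of T v) = 0 := by
        apply DFinsupp.ext
        intro i
        exact toAdj_eq_zero (f i) _ (hcon i)
      have h3 := Φ.injective (h2.trans (map_zero Φ).symm)
      exact (AEval'.of T).injective (h3.trans (map_zero _).symm)
    obtain ⟨i, hi⟩ := hex
    obtain ⟨h, hh⟩ := hl i _ hi
    obtain ⟨u', hu'⟩ := toAdj_surjective (f i) h
    let y : ι → F := (AEval'.of T).symm (Φ.symm (DirectSum.lof F[X] I _ i u'))
    have hy : Φ (AEval'.of T y) = DirectSum.lof F[X] I _ i u' := by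
      simp [y]
    have hψy1 : ψ i y = h := by
      simp only [ψ, hy]
      rw [DirectSum.component.lof_self, hu']
    have hψy2 : ∀ j, j ≠ i → ψ j y = 0 := by
      intro j hj
      simp only [ψ, hy]
      rw [DirectSum.component.of, dif_neg (Ne.symm hj)]
      rfl
    have h4 := hBv y
    rw [hB, Finset.sum_eq_single i] at h4
    · rw [hψy1] at h4
      exact hh h4
    · intro j _ hj
      rw [hψy2 j hj, zero_mul, map_zero]
    · intro h5
      exact absurd (Finset.mem_univ i) h5
  · have h1 : LinearMap.BilinForm.toMatrix' (B.compLeft T) = LinearMap.BilinForm.toMatrix' (B.compRight T) := by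
      congr 1
      apply LinearMap.ext₂
      intro x y
      exact hadj x y
    rw [LinearMap.BilinForm.toMatrix'_compLeft, LinearMap.BilinForm.toMatrix'_compRight, LinearMap.toMatrix'_toLin'] at h1
    exact h1

/-- A square matrix is conjugate to its transpose. -/
theorem isConj_transpose {ι : Type*} [Fintype ι] [DecidableEq ι] (A : Matrix ι ι F) :
    IsConj A A.transpose := by
  obtain ⟨G, hdet, hG⟩ := exists_selfAdjoint_gram A
  have hU : IsUnit G := (Matrix.isUnit_iff_isUnit_det G).2 (isUnit_iff_ne_zero.2 hdet)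
  exact ⟨hU.unit, by
    show (hU.unit : Matrix ι ι F) * A = A.transpose * (hU.unit : Matrix ι ι F)
    rw [IsUnit.unit_spec]
    exact hG.symm⟩

end Cfsg.Agent.Lib.Similar
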